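/-
Products of two abelian subgroups: a nontrivial normal subgroup lies in one of the factors.
-/
import Mathlib
import Cfsg.Agent.S0572
import Cfsg.Agent.Lib.PSolvable.Products

set_option autoImplicit false
set_option linter.style.haveILetI false

open scoped Pointwise commutatorElement

namespace CfsgLib.PSolvable

/-- An inner-derivation criterion: over a commutative ring acting on a finite module without common
fixed vectors, a compatible family comes from one element. -/
theorem exists_inner_of_compatible {S : Type*} [CommRing S] {M : Type*} [AddCommGroup M]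
    [Module S M] [Finite M] {ι : Type*} (s : ι → S) (hfix : ∀ m : M, (∀ i, s i • m = 0) → m = 0)
    (f : ι → M) (hc : ∀ i j, s j • f i = s i • f j) : ∃ m : M, ∀ i, f i = s i • m := by
  let I : Ideal S := Ideal.span (Set.range s)
  -- descending chain `I ^ k M`
  obtain ⟨k, hk⟩ : ∃ k, (I ^ k • (⊤ : Submodule S M)) ≤ I • (I ^ k • (⊤ : Submodule S M)) := by
    have hanti : Antitone fun k => I ^ k • (⊤ : Submodule S M) := fun a b hab =>
      Submodule.smul_mono_left (Ideal.pow_le_pow_right hab)
    obtain ⟨a, b, hab, he⟩ := Finite.exists_ne_map_eq_of_infinite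
      (fun k : ℕ => I ^ k • (⊤ : Submodule S M))
    have key : ∀ c d : ℕ, c < d → I ^ c • (⊤ : Submodule S M) = I ^ d • (⊤ : Submodule S M) →
        I ^ c • (⊤ : Submodule S M) ≤ I • (I ^ c • (⊤ : Submodule S M)) := by
      intro c d hcd h
      rw [← Submodule.mul_smul, ← pow_succ']
      exact h.le.trans (hanti (Nat.succ_le_of_lt hcd))
    rcases lt_or_gt_of_ne hab with h | h
    · exact ⟨a, key a b h he⟩
    · exact ⟨b, key b a h he.symm⟩
  haveI : Module.Finite S M := Module.Finite.of_finite
  obtain ⟨r, hr, hr0⟩ := Submodule.exists_sub_one_mem_and_smul_eq_zero_of_fg_of_le_smul I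
    (I ^ k • (⊤ : Submodule S M)) (Submodule.FG.of_finite) hk
  -- `r` annihilates `M`
  have hann : ∀ j : ℕ, j ≤ k → ∀ m ∈ (I ^ (k - j) • (⊤ : Submodule S M)), r • m = 0 := by
    intro j
    induction j with
    | zero => exact fun _ m hm => hr0 m (by simpa using hm)
    | succ j ih =>
      intro hj m hm
      refine hfix _ fun i => ?_
      rw [smul_comm]
      refine ih (Nat.le_of_succ_le hj) _ ?_
      have hmem : s i • m ∈ I • (I ^ (k - (j + 1)) • (⊤ : Submodule S M)) :=
        Submodule.smul_mem_smul (Ideal.subset_span (Set.mem_range_self i)) hm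
      rwa [← Submodule.mul_smul, ← pow_succ',
        show k - (j + 1) + 1 = k - j by omega] at hmem
  have hr1 : ∀ m : M, r • m = 0 := fun m => hann k le_rfl m (by simp)
  have hP : ∀ x ∈ I, ∃ m : M, ∀ i, x • f i = s i • m := by
    intro x hx
    induction hx using Submodule.span_induction with
    | mem x hx =>
      obtain ⟨j, rfl⟩ := hx
      exact ⟨f j, fun i => hc i j⟩
    | zero => exact ⟨0, fun i => by simp⟩
    | add x y _ _ hx hy =>
      obtain ⟨u, hu⟩ := hx
      obtain ⟨v, hv⟩ := hy
      exact ⟨u + v, fun i => by rw [add_smul, hu, hv, smul_add]⟩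
    | smul c x _ hx =>
      obtain ⟨u, hu⟩ := hx
      exact ⟨c • u, fun i => by rw [smul_eq_mul, mul_smul, hu, smul_comm]⟩
  obtain ⟨m, hm⟩ := hP (r - 1) hr
  refine ⟨-m, fun i => ?_⟩
  rw [smul_neg, ← hm, sub_smul, hr1, one_smul, zero_sub, neg_neg]

variable {G : Type*} [Group G]

/-- An abelian complement of an abelian normal subgroup `N` meeting no fixed points is conjugate to
every other abelian complement. -/
theorem exists_conj_le_of_abelian_complement [Finite G] (A B N : Subgroup G) [N.Normal]
    [IsMulCommutative A] [hBc : IsMulCommutative B] [hNc : IsMulCommutative N]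
    (hfix : ∀ n ∈ N, (∀ a ∈ A, a * n = n * a) → n = 1) (hBN : N ⊔ B = ⊤) :
    ∃ x : G, MulAut.conj x • A ≤ B := by
  letI : CommGroup A := { (inferInstance : Group A) with mul_comm := ‹IsMulCommutative A›.is_comm.comm }
  letI : CommGroup N := { (inferInstance : Group N) with mul_comm := hNc.is_comm.comm }
  let φ : A →* Module.End ℤ (Additive N) :=
    { toFun := fun a => (MulAut.conjNormal (a : G) : MulAut N).toMonoidHom.toAdditive.toIntLinearMap
      map_one' := by
        refine LinearMap.ext fun v => ?_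
        change Additive.ofMul ((MulAut.conjNormal ((1 : A) : G) : MulAut N) (Additive.toMul v)) = v
        simp
      map_mul' := fun a b => by
        refine LinearMap.ext fun v => ?_
        change Additive.ofMul ((MulAut.conjNormal ((a * b : A) : G) : MulAut N) (Additive.toMul v)) =
          Additive.ofMul ((MulAut.conjNormal (a : G) : MulAut N)
            ((MulAut.conjNormal (b : G) : MulAut N) (Additive.toMul v)))
        simp [map_mul] }
  let Φ := MonoidAlgebra.lift ℤ (Module.End ℤ (Additive N)) A φ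
  letI : Module (MonoidAlgebra ℤ A) (Additive N) := Module.compHom (Additive N) Φ.toRingHom
  let s : A → MonoidAlgebra ℤ A := fun a => MonoidAlgebra.of ℤ A a - 1
  have hs : ∀ (a : A) (v : N), ((Additive.toMul (s a • Additive.ofMul v) : N) : G) =
      (a : G) * v * (a : G)⁻¹ * (v : G)⁻¹ := by
    intro a v
    change ((Additive.toMul ((Φ (s a)) (Additive.ofMul v)) : N) : G) = _
    simp only [s, map_sub, map_one, Φ, MonoidAlgebra.lift_of]
    rw [LinearMap.sub_apply, Module.End.one_apply, toMul_sub, toMul_ofMul, Subgroup.coe_div,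
      div_eq_mul_inv]
    rfl
  have hdec : ∀ a : G, ∃ n ∈ N, n * a ∈ B := by
    intro a
    obtain ⟨n, hn, b, hb, rfl⟩ := Subgroup.mem_sup_of_normal_left.1
      (hBN ▸ Subgroup.mem_top a : a ∈ N ⊔ B)
    exact ⟨n⁻¹, N.inv_mem hn, by rwa [inv_mul_cancel_left]⟩
  choose f₀ hf₀N hf₀B using hdec
  let f : A → Additive N := fun a => Additive.ofMul (⟨f₀ a, hf₀N a⟩ : N)
  have hfix' : ∀ m : Additive N, (∀ a : A, s a • m = 0) → m = 0 := by
    intro m hm
    obtain ⟨v, rfl⟩ := Additive.ofMul.surjective m
    have hv1 : (v : G) = 1 := hfix v v.2 fun a ha => by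
      have h1 := hs ⟨a, ha⟩ v
      rw [hm] at h1
      have h2 : a * (v : G) * a⁻¹ * (v : G)⁻¹ = 1 := h1.symm
      exact commutatorElement_eq_one_iff_mul_comm.1 h2
    rw [show v = 1 from Subtype.ext hv1]; rfl
  have hcomm : ∀ i j : A, s j • f i = s i • f j := by
    intro i j
    refine Additive.toMul.injective (Subtype.ext ?_)
    rw [hs, hs]
    change (j : G) * f₀ i * (j : G)⁻¹ * (f₀ i)⁻¹ = i * f₀ j * (i : G)⁻¹ * (f₀ j)⁻¹
    have hB2 : f₀ i * i * (f₀ j * j) = f₀ j * j * (f₀ i * i) := congrArg Subtype.val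
      (hBc.is_comm.comm (⟨_, hf₀B i⟩ : B) ⟨_, hf₀B j⟩)
    have hA2 : (i : G) * j = j * i := congrArg Subtype.val (mul_comm i j)
    have hNc' : ∀ u ∈ N, ∀ w ∈ N, u * w = w * u := fun u hu w hw =>
      congrArg Subtype.val (hNc.is_comm.comm (⟨u, hu⟩ : N) ⟨w, hw⟩)
    set u := f₀ i
    set w := f₀ j
    -- both sides of `hB2` cancel `i * j`
    have h3 : u * ((i : G) * w * (i : G)⁻¹) = w * ((j : G) * u * (j : G)⁻¹) := by
      calc u * ((i : G) * w * (i : G)⁻¹) = u * i * (w * j) * ((i : G) * j)⁻¹ := by group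
        _ = w * j * (u * i) * ((j : G) * i)⁻¹ := by rw [hB2, hA2]
        _ = w * ((j : G) * u * (j : G)⁻¹) := by group
    have huN : u ∈ N := hf₀N i
    have hwN : w ∈ N := hf₀N j
    have hju : (j : G) * u * (j : G)⁻¹ ∈ N := ‹N.Normal›.conj_mem u huN j
    have hiw : (i : G) * w * (i : G)⁻¹ ∈ N := ‹N.Normal›.conj_mem w hwN i
    calc (j : G) * u * (j : G)⁻¹ * u⁻¹ = w⁻¹ * (w * ((j : G) * u * (j : G)⁻¹)) * u⁻¹ := by group
      _ = w⁻¹ * (u * ((i : G) * w * (i : G)⁻¹)) * u⁻¹ := by rw [h3]
      _ = w⁻¹ * (((i : G) * w * (i : G)⁻¹) * u) * u⁻¹ := by rw [hNc' u huN _ hiw]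
      _ = w⁻¹ * ((i : G) * w * (i : G)⁻¹) := by group
      _ = (i : G) * w * (i : G)⁻¹ * w⁻¹ := hNc' _ (N.inv_mem hwN) _ hiw
  obtain ⟨m, hm⟩ := exists_inner_of_compatible s hfix' f hcomm
  obtain ⟨v, rfl⟩ := Additive.ofMul.surjective m
  refine ⟨(v : G)⁻¹, fun x hx => ?_⟩
  rw [mem_conj_smul_iff, inv_inv] at hx
  have h1 := congrArg (fun y : Additive N => ((Additive.toMul y : N) : G))
    (hm ⟨_, hx⟩)
  simp only [f, toMul_ofMul, hs] at h1
  have h2 := hf₀B ((v : G) * x * (v : G)⁻¹)
  rw [h1] at h2
  have hNc' : ∀ u ∈ N, ∀ w ∈ N, u * w = w * u := fun u hu w hw =>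
    congrArg Subtype.val (hNc.is_comm.comm (⟨u, hu⟩ : N) ⟨w, hw⟩)
  set a : G := (v : G) * x * (v : G)⁻¹ with ha
  rw [hNc' _ (‹N.Normal›.conj_mem _ v.2 a) _ (N.inv_mem v.2)] at h2
  have h3 : (v : G)⁻¹ * (a * v * a⁻¹) * a = x := by rw [ha]; group
  rwa [h3] at h2

/-- A nontrivial product of two abelian subgroups has a nontrivial normal subgroup inside one of
the factors. -/
theorem exists_normal_le_factor [Finite G] [Nontrivial G] (A B : Subgroup G) [IsMulCommutative A]
    [IsMulCommutative B] (hAB : IsFactor A B) :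
    ∃ N : Subgroup G, N.Normal ∧ N ≠ ⊥ ∧ (N ≤ A ∨ N ≤ B) := by
  suffices ∀ (n : ℕ) (G : Type _) [Group G] [Finite G] [Nontrivial G], Nat.card G = n →
      ∀ (A B : Subgroup G) [IsMulCommutative A] [IsMulCommutative B], IsFactor A B →
      ∃ N : Subgroup G, N.Normal ∧ N ≠ ⊥ ∧ (N ≤ A ∨ N ≤ B) from this _ G rfl A B hAB
  intro n
  induction n using Nat.strong_induction_on with
  | _ n ih =>
    intro G _ _ _ hn A B hAc hBc hAB
    have hcommA : ∀ x ∈ A, ∀ y ∈ A, x * y = y * x := fun x hx y hy =>
      congrArg Subtype.val (hAc.is_comm.comm (⟨x, hx⟩ : A) ⟨y, hy⟩)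
    by_cases hZ : Subgroup.center G = ⊥
    swap
    · -- a central element splits into central parts
      obtain ⟨z, hz, hz1⟩ := (Subgroup.bot_or_exists_ne_one _).resolve_left hZ
      obtain ⟨a, ha, b, hb, rfl⟩ := hAB z
      have hzc := Subgroup.mem_center_iff.1 hz
      have hbc : b ∈ Subgroup.center G := Subgroup.mem_center_iff.2 fun g => by
        obtain ⟨a', ha', b', hb', rfl⟩ := hAB g
        have h1 : Commute a' b := by
          have e : b = a⁻¹ * (a * b) := (inv_mul_cancel_left a b).symm
          rw [e]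
          exact (Commute.inv_right (hcommA a' ha' a ha)).mul_right (hzc a')
        have h2 : Commute b' b := congrArg Subtype.val
          (hBc.is_comm.comm (⟨b', hb'⟩ : B) ⟨b, hb⟩)
        exact h1.mul_left h2
      have hac : a ∈ Subgroup.center G := by
        have := (Subgroup.center G).mul_mem hz ((Subgroup.center G).inv_mem hbc)
        rwa [mul_inv_cancel_right] at this
      by_cases hb1 : b = 1
      · refine ⟨Subgroup.zpowers a, ?_, ?_, Or.inl (Subgroup.zpowers_le.2 ha)⟩
        · exact ⟨fun x hx g => by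
            rw [Subgroup.mem_center_iff.1 ((Subgroup.zpowers_le.2 hac) hx) g, mul_inv_cancel_right]
            exact hx⟩
        · exact Subgroup.zpowers_ne_bot.2 fun h => hz1 (by rw [h, hb1, mul_one])
      · refine ⟨Subgroup.zpowers b, ?_, Subgroup.zpowers_ne_bot.2 hb1,
          Or.inr (Subgroup.zpowers_le.2 hb)⟩
        exact ⟨fun x hx g => by
          rw [Subgroup.mem_center_iff.1 ((Subgroup.zpowers_le.2 hbc) hx) g, mul_inv_cancel_right]
          exact hx⟩
    let N := commutator G
    haveI hNc : IsMulCommutative N := by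
      have h := Cfsg.Agent.S0572.result A B hAB
      rw [derivedSeries_succ, derivedSeries_one] at h
      exact Subgroup.commutator_self_eq_bot_iff.1 h
    -- the case `A N < G`
    have half : ∀ (A B : Subgroup G) [IsMulCommutative A] [IsMulCommutative B], IsFactor A B →
        A ⊔ N ≠ ⊤ → ∃ M : Subgroup G, M.Normal ∧ M ≠ ⊥ ∧ (M ≤ A ∨ M ≤ B) := by
      intro A B hAc hBc hAB hne
      rcases eq_or_ne A ⊥ with rfl | hA0
      · refine ⟨⊤, inferInstance, top_ne_bot, Or.inr ?_⟩
        rw [← hAB.sup_eq_top, bot_sup_eq]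
      let A1 := A ⊔ N
      haveI hA1n : A1.Normal := Subgroup.Normal.of_commutator_le G le_sup_right
      have hAA1 : A ≤ A1 := le_sup_left
      by_cases hZ1 : Subgroup.center A1 = ⊥
      swap
      · refine ⟨(Subgroup.center A1).map A1.subtype, inferInstance,
          fun h => hZ1 ((Subgroup.map_eq_bot_iff_of_injective _ A1.subtype_injective).1 h),
          Or.inl ?_⟩
        rintro _ ⟨z, hz, rfl⟩
        obtain ⟨a, ha, b, hb, hzab⟩ := hAB z
        have hbc : b ∈ Subgroup.center G := Subgroup.mem_center_iff.2 fun g => by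
          obtain ⟨a', ha', b', hb', rfl⟩ := hAB g
          have h1 : Commute a' b := by
            have e : b = a⁻¹ * (z : G) := by rw [hzab, inv_mul_cancel_left]
            rw [e]
            refine (Commute.inv_right (congrArg Subtype.val
              (hAc.is_comm.comm (⟨a', ha'⟩ : A) ⟨a, ha⟩))).mul_right ?_
            exact congrArg Subtype.val (Subgroup.mem_center_iff.1 hz ⟨a', hAA1 ha'⟩)
          have h2 : Commute b' b := congrArg Subtype.val
            (hBc.is_comm.comm (⟨b', hb'⟩ : B) ⟨b, hb⟩)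
          exact h1.mul_left h2
        rw [hZ, Subgroup.mem_bot] at hbc
        rw [Subgroup.coe_subtype, hzab, hbc, mul_one]
        exact ha
      haveI : Nontrivial A1 := (Subgroup.nontrivial_iff_ne_bot A1).2
        fun h => hA0 (le_bot_iff.1 (h ▸ hAA1))
      haveI : IsMulCommutative (A.subgroupOf A1) :=
        ⟨⟨fun a b => Subtype.ext (Subtype.ext (congrArg Subtype.val
          (hAc.is_comm.comm (⟨_, a.2⟩ : A) ⟨_, b.2⟩) :))⟩⟩
      haveI : IsMulCommutative (B.subgroupOf A1) :=
        ⟨⟨fun a b => Subtype.ext (Subtype.ext (congrArg Subtype.val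
          (hBc.is_comm.comm (⟨_, a.2⟩ : B) ⟨_, b.2⟩) :))⟩⟩
      have hlt : Nat.card A1 < n := by
        rw [← hn]
        exact lt_of_le_of_ne (Subgroup.card_le_card_group _)
          fun he => hne (Subgroup.eq_top_of_card_eq _ he)
      obtain ⟨M, hM, hM0, hMle⟩ := ih _ hlt A1 rfl (A.subgroupOf A1) (B.subgroupOf A1)
        (hAB.subgroupOf hAA1)
      have hXA1 : M.map A1.subtype ≤ A1 := Subgroup.map_subtype_le M
      have hX0 : M.map A1.subtype ≠ ⊥ :=
        fun h => hM0 ((Subgroup.map_eq_bot_iff_of_injective _ A1.subtype_injective).1 h)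
      rcases hMle with hMle | hMle
      · -- `M` would be central in `A1`
        exfalso
        refine hM0 (eq_bot_iff.2 fun x hx => ?_)
        rw [← hZ1]
        have hxA : (x : G) ∈ A := hMle hx
        have hAN : ∀ y : G, y ∈ A → y ∈ N → y = 1 := by
          intro y hyA hyN
          have hy : (⟨y, hAA1 hyA⟩ : A1) ∈ Subgroup.center A1 := by
            refine Subgroup.mem_center_iff.2 fun g => Subtype.ext ?_
            have hg : (g : G) ∈ Subgroup.centralizer ({y} : Set G) := by
              refine (sup_le ?_ ?_ : A ⊔ N ≤ _) g.2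
              · exact fun u hu => Subgroup.mem_centralizer_singleton_iff.2 (congrArg Subtype.val
                  (hAc.is_comm.comm (⟨u, hu⟩ : A) ⟨y, hyA⟩))
              · exact fun u hu => Subgroup.mem_centralizer_singleton_iff.2 (congrArg Subtype.val
                  (hNc.is_comm.comm (⟨u, hu⟩ : N) ⟨y, hyN⟩))
            exact Subgroup.mem_centralizer_singleton_iff.1 hg
          rw [hZ1, Subgroup.mem_bot] at hy
          exact congrArg Subtype.val hy
        refine Subgroup.mem_center_iff.2 fun g => Subtype.ext ?_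
        have hg : (g : G) ∈ Subgroup.centralizer ({(x : G)} : Set G) := by
          refine (sup_le ?_ ?_ : A ⊔ N ≤ _) g.2
          · exact fun u hu => Subgroup.mem_centralizer_singleton_iff.2 (congrArg Subtype.val
              (hAc.is_comm.comm (⟨u, hu⟩ : A) ⟨x, hxA⟩))
          · intro u hu
            rw [Subgroup.mem_centralizer_singleton_iff, ← commutatorElement_eq_one_iff_mul_comm]
            refine hAN _ ?_ ?_
            · have h1 := hM.conj_mem x hx ⟨u, Subgroup.mem_sup_right hu⟩
              rw [commutatorElement_def]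
              exact A.mul_mem (hMle h1) (A.inv_mem hxA)
            · exact Subgroup.commutator_mem_commutator (Subgroup.mem_top u) (Subgroup.mem_top _)
        exact Subgroup.mem_centralizer_singleton_iff.1 hg
      · -- `M` is normalized by `A1` and `B`
        refine ⟨M.map A1.subtype, ?_, hX0, Or.inr ?_⟩
        · rw [← Subgroup.normalizer_eq_top_iff, eq_top_iff, ← hAB.sup_eq_top]
          refine sup_le (hAA1.trans ((Subgroup.normal_subgroupOf_iff_le_normalizer hXA1).1 ?_)) ?_
          · rwa [Subgroup.subgroupOf, Subgroup.comap_map_eq_self_of_injective A1.subtype_injective]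
          · refine le_trans ?_ (Subgroup.centralizer_le_normalizer _)
            intro b hb
            refine Subgroup.mem_centralizer_iff.2 ?_
            rintro _ ⟨y, hy, rfl⟩
            exact congrArg Subtype.val (hBc.is_comm.comm (⟨(y : G), hMle hy⟩ : B) ⟨b, hb⟩)
        · rintro _ ⟨y, hy, rfl⟩; exact hMle hy
    by_cases hA : A ⊔ N = ⊤
    swap
    · exact half A B hAB hA
    by_cases hB : B ⊔ N = ⊤
    swap
    · obtain ⟨M, h1, h2, h3⟩ := half B A hAB.swap hB
      exact ⟨M, h1, h2, h3.symm⟩
    -- both complement `N`: they are conjugate, which is absurd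
    exfalso
    have hcent : ∀ (A : Subgroup G), IsMulCommutative A → A ⊔ N = ⊤ →
        ∀ x ∈ N, (∀ a ∈ A, a * x = x * a) → x = 1 := by
      intro A hAc hA x hx h
      have h1 : x ∈ Subgroup.center G := Subgroup.mem_center_iff.2 fun g => by
        refine Subgroup.mem_centralizer_singleton_iff.1
          ((sup_le ?_ ?_ : A ⊔ N ≤ Subgroup.centralizer ({x} : Set G)) (hA ▸ Subgroup.mem_top g))
        · exact fun u hu => Subgroup.mem_centralizer_singleton_iff.2 (h u hu)
        · exact fun u hu => Subgroup.mem_centralizer_singleton_iff.2 (congrArg Subtype.val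
            (hNc.is_comm.comm (⟨u, hu⟩ : N) ⟨x, hx⟩))
      rwa [hZ, Subgroup.mem_bot] at h1
    have hBd : B ⊓ N = ⊥ := eq_bot_iff.2 fun x hx => Subgroup.mem_bot.2
      (hcent B hBc hB x hx.2 fun b hb => congrArg Subtype.val
        (hBc.is_comm.comm (⟨b, hb⟩ : B) ⟨x, hx.1⟩))
    obtain ⟨x, hx⟩ := exists_conj_le_of_abelian_complement A B N (hcent A hAc hA)
      (sup_comm N B ▸ hB)
    have hAd : (MulAut.conj x • A : Subgroup G) ⊓ N = ⊥ :=
      le_bot_iff.1 ((inf_le_inf_right N hx).trans hBd.le)
    have hAx : (MulAut.conj x • A : Subgroup G) = B := by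
      refine le_antisymm hx fun b hb => ?_
      have hsup : (MulAut.conj x • A : Subgroup G) ⊔ N = ⊤ := by
        have h1 : MulAut.conj x • (A ⊔ N) = MulAut.conj x • (⊤ : Subgroup G) := by rw [hA]
        rw [Subgroup.smul_sup] at h1
        have h2 : MulAut.conj x • N = N := by
          ext y
          rw [mem_conj_smul_iff]
          exact ⟨fun h => by simpa [mul_assoc] using (inferInstance : N.Normal).conj_mem _ h x,
            fun h => (inferInstance : N.Normal).conj_mem' _ h x⟩
        have h3 : MulAut.conj x • (⊤ : Subgroup G) = ⊤ := top_le_iff.1 fun y _ =>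
          mem_conj_smul_iff.2 (Subgroup.mem_top _)
        rwa [h2, h3] at h1
      obtain ⟨a, ha, k, hk, rfl⟩ := Subgroup.mem_sup_of_normal_right.1
        (hsup ▸ Subgroup.mem_top b : b ∈ (MulAut.conj x • A : Subgroup G) ⊔ N)
      have hk1 : k ∈ B ⊓ N :=
        ⟨by simpa using B.mul_mem (B.inv_mem (hx ha)) hb, hk⟩
      rw [hBd, Subgroup.mem_bot] at hk1
      rw [hk1, mul_one]
      exact ha
    have hf := hAB.conj_smul x 1
    rw [map_one, one_smul, hAx] at hf
    have hBtop : B = ⊤ := top_le_iff.1 fun g _ => by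
      obtain ⟨u, hu, v, hv, rfl⟩ := hf g
      exact B.mul_mem hu hv
    have hG : Subgroup.center G = ⊤ := top_le_iff.1 fun g _ => Subgroup.mem_center_iff.2 fun h =>
      congrArg Subtype.val (hBc.is_comm.comm (⟨h, hBtop ▸ Subgroup.mem_top h⟩ : B)
        ⟨g, hBtop ▸ Subgroup.mem_top g⟩)
    exact bot_ne_top (hZ.symm.trans hG)

end CfsgLib.PSolvable
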