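import Mathlib
import Cfsg.Agent.Lib.PSolvable.Products

/-!
The focal subgroup theorem for Hall subgroups and the resulting normal complement criterion.
-/

set_option autoImplicit false
set_option linter.style.haveILetI false

open scoped commutatorElement

namespace CfsgLib.PSolvable

universe u

variable {G : Type u} [Group G] [Finite G]

theorem map_focalSubgroup_le {G' : Type*} [Group G'] {G₀ : Type*} [Group G₀] (f : G₀ →* G')
    {X : Subgroup G₀} {Y : Subgroup G'} (hXY : X.map f ≤ Y) :
    (Subgroup.focalSubgroup X).map f ≤ Subgroup.focalSubgroup Y := by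
  rw [Subgroup.focalSubgroup_def, Subgroup.focalSubgroup_def, MonoidHom.map_closure]
  refine Subgroup.closure_mono ?_
  rintro _ ⟨g, ⟨hg, x, hx, u, rfl⟩, rfl⟩
  exact ⟨hXY (Subgroup.mem_map_of_mem f hg), f x, hXY (Subgroup.mem_map_of_mem f hx), f u,
    map_commutatorElement f x u⟩

omit [Finite G] in
theorem focalSubgroup_mono {X Y : Subgroup G} (h : X ≤ Y) :
    Subgroup.focalSubgroup X ≤ Subgroup.focalSubgroup Y := by
  have := map_focalSubgroup_le (MonoidHom.id G) (X := X) (Y := Y) (by rwa [Subgroup.map_id])
  rwa [Subgroup.map_id] at this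

open scoped IsMulCommutative in
/-- The focal subgroup theorem for a Hall subgroup: a normal subgroup covers the quotient and meets
the Hall subgroup in its focal subgroup. -/
theorem exists_normal_inf_eq_focalSubgroup (H : Subgroup G)
    (hHall : (Nat.card H).Coprime H.index) :
    ∃ K : Subgroup G, K.Normal ∧ K ⊓ H = Subgroup.focalSubgroup H ∧ IsFactor H K := by
  let f := H.transferFocal
  refine ⟨f.ker, inferInstance, ?_, ?_⟩
  · have hcop : (Nat.card (H ⧸ H.focalSubgroupOf)).Coprime H.index :=
      hHall.coprime_dvd_left (Subgroup.card_quotient_dvd_card _)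
    apply le_antisymm
    · rintro x ⟨hx, hxH⟩
      have h1 : f x = 1 := hx
      rw [show f x = _ from Subgroup.transferFocal_eq_pow H ⟨x, hxH⟩] at h1
      have h2 : ((⟨x, hxH⟩ : H) : H ⧸ H.focalSubgroupOf) = 1 :=
        (powCoprime hcop).injective (by simpa using h1)
      exact (QuotientGroup.eq_one_iff (⟨x, hxH⟩ : H)).1 h2
    · intro x hx
      have hxH := Subgroup.focalSubgroup_le H hx
      refine ⟨?_, hxH⟩
      change f x = 1
      rw [show f x = _ from Subgroup.transferFocal_eq_pow H ⟨x, hxH⟩]
      rw [(QuotientGroup.eq_one_iff (⟨x, hxH⟩ : H)).2 hx, one_pow]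
  · intro g
    have hcop : (Nat.card (H ⧸ H.focalSubgroupOf)).Coprime H.index :=
      hHall.coprime_dvd_left (Subgroup.card_quotient_dvd_card _)
    obtain ⟨y, hy⟩ := (powCoprime hcop).surjective (f g)
    obtain ⟨⟨h, hh⟩, rfl⟩ := QuotientGroup.mk'_surjective _ y
    refine ⟨h, hh, h⁻¹ * g, ?_, by group⟩
    rw [MonoidHom.mem_ker, map_mul, map_inv, inv_mul_eq_one]
    exact (Subgroup.transferFocal_eq_pow H ⟨h, hh⟩).trans hy

omit [Finite G] in
/-- A normal Hall subgroup is characteristic. -/
theorem characteristic_of_normal_of_coprime (N : Subgroup G) [N.Normal]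
    (h : (Nat.card N).Coprime N.index) : N.Characteristic := by
  refine Subgroup.characteristic_iff_map_le.2 fun φ => ?_
  intro x hx
  rw [← QuotientGroup.eq_one_iff, ← orderOf_eq_one_iff]
  refine Nat.dvd_one.1 (h.gcd_eq_one ▸ Nat.dvd_gcd ?_ ?_)
  · refine (orderOf_map_dvd (QuotientGroup.mk' N) x).trans ?_
    obtain ⟨y, hy, rfl⟩ := hx
    rw [orderOf_injective φ.toMonoidHom φ.injective y]
    have := orderOf_dvd_natCard (⟨y, hy⟩ : N)
    rwa [Subgroup.orderOf_mk] at this
  · exact orderOf_dvd_natCard _

/-- If the iterated focal subgroups of a Hall subgroup reach `⊥`, it has a normal complement. -/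
theorem exists_complement_of_focal_series (n : ℕ) : ∀ {G : Type u} [Group G] [Finite G]
    (H : Subgroup G), (Nat.card H).Coprime H.index →
    (fun K : Subgroup G => Subgroup.focalSubgroup K)^[n] H = ⊥ →
    ∃ N : Subgroup G, N.Normal ∧ Subgroup.IsComplement' N H := by
  induction n with
  | zero =>
    intro G _ _ H _ hH
    rw [Function.iterate_zero_apply] at hH
    subst hH
    exact ⟨⊤, inferInstance, Subgroup.isComplement'_top_bot⟩
  | succ n ih =>
    intro G _ _ H hHall hfoc
    obtain ⟨K, hK, hKH, hfac⟩ := exists_normal_inf_eq_focalSubgroup H hHall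
    set F := Subgroup.focalSubgroup H with hF
    have hFK : F ≤ K := hKH ▸ inf_le_left
    have hcardK : Nat.card K = Nat.card F * H.index := by
      have h := hfac.card_eq
      rw [inf_comm, hKH, ← H.card_mul_index, mul_assoc] at h
      rw [mul_comm (Nat.card F)]
      exact (Nat.eq_of_mul_eq_mul_left Nat.card_pos h).symm
    let F' := F.subgroupOf K
    have hF'card : Nat.card F' = Nat.card F :=
      Nat.card_congr (Subgroup.subgroupOfEquivOfLe hFK).toEquiv
    have hF'index : F'.index = H.index := by
      have h := F'.card_mul_index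
      rw [hF'card, hcardK] at h
      exact Nat.eq_of_mul_eq_mul_left Nat.card_pos h
    have hF'hall : (Nat.card F').Coprime F'.index := by
      rw [hF'card, hF'index]
      exact hHall.coprime_dvd_left (Subgroup.card_dvd_of_le (hKH ▸ inf_le_right))
    have hiter : ∀ m, ((fun X : Subgroup K => Subgroup.focalSubgroup X)^[m] F').map K.subtype ≤
        (fun X : Subgroup G => Subgroup.focalSubgroup X)^[m] F := by
      intro m
      induction m with
      | zero =>
        rw [Function.iterate_zero_apply, Function.iterate_zero_apply,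
          Subgroup.map_subgroupOf_eq_of_le hFK]
      | succ m ihm =>
        rw [Function.iterate_succ_apply', Function.iterate_succ_apply']
        exact map_focalSubgroup_le _ ihm
    rw [Function.iterate_succ_apply] at hfoc
    have hfoc' : (fun X : Subgroup K => Subgroup.focalSubgroup X)^[n] F' = ⊥ := by
      have := hiter n
      rwa [hfoc, le_bot_iff, Subgroup.map_eq_bot_iff_of_injective _ K.subtype_injective] at this
    obtain ⟨N, hN, hNc⟩ := ih F' hF'hall hfoc'
    have hNcard : Nat.card N = H.index := by rw [← hNc.index_eq_card, hF'index]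
    have hNindex : N.index = Nat.card F' := hNc.symm.index_eq_card
    haveI := characteristic_of_normal_of_coprime N
      (by rw [hNcard, hNindex, ← hF'index]; exact hF'hall.symm)
    haveI := hK
    refine ⟨N.map K.subtype, ConjAct.normal_of_characteristic_of_normal, ?_⟩
    have hc : Nat.card ↥(N.map K.subtype) = H.index := by
      rw [Subgroup.card_map_of_injective K.subtype_injective, hNcard]
    exact Subgroup.isComplement'_of_coprime (by rw [hc, mul_comm, H.card_mul_index])
      (by rw [hc]; exact hHall.symm)

/-- If fusion inside a subgroup `P` is controlled by a nilpotent group `H` containing it, and `P` is a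
Hall subgroup, then `P` has a normal complement. -/
theorem exists_complement_of_controlled (P H : Subgroup G) (hPH : P ≤ H)
    (hH : Group.IsNilpotent H) (hHall : (Nat.card P).Coprime P.index)
    (hctrl : ∀ x ∈ P, ∀ g : G, g * x * g⁻¹ ∈ P → ∃ h ∈ H, h * x * h⁻¹ = g * x * g⁻¹) :
    ∃ N : Subgroup G, N.Normal ∧ Subgroup.IsComplement' N P := by
  obtain ⟨n, hn⟩ := Subgroup.isNilpotent_iff_lowerCentralSeries H |>.1 hH
  refine exists_complement_of_focal_series n P hHall ?_
  suffices key : ∀ m, (fun K : Subgroup G => Subgroup.focalSubgroup K)^[m] P ≤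
      H.lowerCentralSeries m ⊓ P from
    le_bot_iff.1 (((key n).trans inf_le_left).trans hn.le)
  intro m
  induction m with
  | zero => exact le_inf hPH le_rfl
  | succ m ih =>
    rw [Function.iterate_succ_apply']
    refine (focalSubgroup_mono ih).trans ?_
    rw [Subgroup.focalSubgroup_def, Subgroup.closure_le]
    rintro _ ⟨hg, x, hx, u, rfl⟩
    refine ⟨?_, hg.2⟩
    rw [SetLike.mem_coe, Subgroup.lowerCentralSeries_succ]
    have hux : u * x⁻¹ * u⁻¹ ∈ P := by
      have := P.mul_mem (P.inv_mem hx.2) hg.2
      rw [commutatorElement_def] at this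
      simpa [mul_assoc] using this
    obtain ⟨h, hh, he⟩ := hctrl x⁻¹ (inv_mem hx.2) u hux
    have : ⁅x, u⁆ = ⁅x, h⁆ := by
      rw [commutatorElement_def, commutatorElement_def, mul_assoc x, mul_assoc x, mul_assoc x,
        mul_assoc x]
      simp only [mul_assoc] at he ⊢
      rw [he]
    rw [this]
    exact Subgroup.commutator_mem_commutator hx.1 hh

end CfsgLib.PSolvable
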